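import Mathlib
import Cfsg.Prelude.Def_Perm
set_option linter.all false

/-!
Elementary arithmetic of near-fields (`Cfsg.NearField`), their right multiplications as additive
automorphisms and the group of affine maps `x ↦ x * a + b`.
-/

set_option autoImplicit false

namespace Cfsg.Agent.PermutationGroups.NearFieldBasic

variable {F : Type*} [Cfsg.NearField F]

theorem nf_zero_mul (a : F) : 0 * a = 0 := by
  have h : (0 + 0 : F) * a = 0 * a + 0 * a := Cfsg.NearField.right_distrib 0 0 a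
  rw [add_zero] at h
  exact (left_eq_add.mp h)

theorem nf_neg_mul (a b : F) : (-a) * b = -(a * b) := by
  have h : (-a + a) * b = (-a) * b + a * b := Cfsg.NearField.right_distrib (-a) a b
  rw [neg_add_cancel, nf_zero_mul] at h
  exact eq_neg_of_add_eq_zero_left h.symm

theorem nf_sub_mul (a b c : F) : (a - b) * c = a * c - b * c := by
  rw [sub_eq_add_neg, Cfsg.NearField.right_distrib, nf_neg_mul, ← sub_eq_add_neg]

theorem nf_mul_ne_zero {a b : F} (ha : a ≠ 0) (hb : b ≠ 0) : a * b ≠ 0 := by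
  intro h
  obtain ⟨b', h1, -⟩ := Cfsg.NearField.exists_inv b hb
  apply ha
  calc a = a * (b * b') := by rw [h1, mul_one]
    _ = 0 := by rw [← mul_assoc, h, nf_zero_mul]

theorem nf_one_ne_zero : (1 : F) ≠ 0 := fun h => Cfsg.NearField.zero_ne_one h.symm

theorem nf_inv_ne_zero {a b : F} (h : a * b = 1) : b ≠ 0 := by
  rintro rfl
  rw [Cfsg.NearField.mul_zero] at h
  exact Cfsg.NearField.zero_ne_one h

theorem nf_mul_left_cancel {a b c : F} (ha : a ≠ 0) (h : a * b = a * c) : b = c := by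
  obtain ⟨a', -, h1⟩ := Cfsg.NearField.exists_inv a ha
  calc b = a' * a * b := by rw [h1, one_mul]
    _ = a' * a * c := by rw [mul_assoc, h, ← mul_assoc]
    _ = c := by rw [h1, one_mul]

/-- For nonzero `x` and any `y` there is `a` with `x * a = y`, nonzero if `y` is. -/
theorem nf_exists_mul_eq {x : F} (hx : x ≠ 0) (y : F) : ∃ a : F, x * a = y := by
  obtain ⟨x', h1, -⟩ := Cfsg.NearField.exists_inv x hx
  exact ⟨x' * y, by rw [← mul_assoc, h1, one_mul]⟩

/-- Right multiplication by a nonzero element, as an automorphism of the additive group. -/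
theorem nf_exists_addEquiv (a : F) (ha : a ≠ 0) : ∃ e : F ≃+ F, ∀ x, e x = x * a := by
  obtain ⟨a', h1, h2⟩ := Cfsg.NearField.exists_inv a ha
  exact ⟨{ toFun := fun x => x * a
           invFun := fun x => x * a'
           left_inv := fun x => by
            change x * a * a' = x
            rw [mul_assoc, h1, mul_one]
           right_inv := fun x => by
            change x * a' * a = x
            rw [mul_assoc, h2, mul_one]
           map_add' := fun x y => Cfsg.NearField.right_distrib x y a }, fun x => rfl⟩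

/-- Right multiplications are transitive on the nonzero elements. -/
theorem nf_exists_addEquiv_map {x y : F} (hx : x ≠ 0) (hy : y ≠ 0) : ∃ e : F ≃+ F, e x = y := by
  obtain ⟨a, ha⟩ := nf_exists_mul_eq hx y
  have ha0 : a ≠ 0 := by
    rintro rfl
    rw [Cfsg.NearField.mul_zero] at ha
    exact hy ha.symm
  obtain ⟨e, he⟩ := nf_exists_addEquiv a ha0
  exact ⟨e, by rw [he, ha]⟩

variable (F) in
/-- The group of the affine permutations `x ↦ x * a + b` (`a ≠ 0`) of a near-field. -/
def nfAffine : Subgroup (Equiv.Perm F) where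
  carrier := {σ | ∃ a b : F, a ≠ 0 ∧ ∀ x : F, σ x = x * a + b}
  one_mem' := ⟨1, 0, nf_one_ne_zero, fun x => by simp⟩
  mul_mem' := by
    rintro σ τ ⟨a, b, ha, hσ⟩ ⟨c, d, hc, hτ⟩
    refine ⟨c * a, d * a + b, nf_mul_ne_zero hc ha, fun x => ?_⟩
    rw [Equiv.Perm.mul_apply, hσ, hτ, Cfsg.NearField.right_distrib, mul_assoc, add_assoc]
  inv_mem' := by
    rintro σ ⟨a, b, ha, hσ⟩
    obtain ⟨a', h1, h2⟩ := Cfsg.NearField.exists_inv a ha
    refine ⟨a', (-b) * a', nf_inv_ne_zero h1, fun x => ?_⟩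
    apply σ.injective
    rw [Equiv.Perm.inv_def, Equiv.apply_symm_apply, hσ, ← Cfsg.NearField.right_distrib, mul_assoc, h2, mul_one,
      neg_add_cancel_right]

theorem mem_nfAffine (σ : Equiv.Perm F) :
    σ ∈ nfAffine F ↔ ∃ a b : F, a ≠ 0 ∧ ∀ x : F, σ x = x * a + b := Iff.rfl

/-- Two distinct points can be mapped to two distinct points by an affine map. -/
theorem nfAffine_exists_map {x₁ x₂ y₁ y₂ : F} (hx : x₁ ≠ x₂) (hy : y₁ ≠ y₂) :
    ∃ σ ∈ nfAffine F, σ x₁ = y₁ ∧ σ x₂ = y₂ := by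
  obtain ⟨a, ha⟩ := nf_exists_mul_eq (sub_ne_zero.mpr hx) (y₁ - y₂)
  have ha0 : a ≠ 0 := by
    rintro rfl
    rw [Cfsg.NearField.mul_zero] at ha
    exact hy (sub_eq_zero.mp ha.symm)
  obtain ⟨e, he⟩ := nf_exists_addEquiv a ha0
  refine ⟨(e.toEquiv.trans (Equiv.addRight (-(x₁ * a) + y₁))), ⟨a, -(x₁ * a) + y₁, ha0,
    fun x => ?_⟩, ?_, ?_⟩
  · change e x + (-(x₁ * a) + y₁) = _
    rw [he]
  · change e x₁ + (-(x₁ * a) + y₁) = _
    rw [he, add_neg_cancel_left]
  · change e x₂ + (-(x₁ * a) + y₁) = _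
    rw [he]
    rw [nf_sub_mul] at ha
    have h2 : x₂ * a = -(y₁ - y₂) + x₁ * a := by
      rw [← ha, neg_sub, sub_add_cancel]
    rw [h2, add_assoc, add_neg_cancel_left, neg_sub, sub_add_cancel]

/-- An affine map fixing two distinct points is the identity. -/
theorem nfAffine_eq_one {σ : Equiv.Perm F} (hσ : σ ∈ nfAffine F) {x₁ x₂ : F} (hx : x₁ ≠ x₂)
    (h1 : σ x₁ = x₁) (h2 : σ x₂ = x₂) : σ = 1 := by
  obtain ⟨a, b, ha, hs⟩ := hσ
  rw [hs] at h1 h2
  have h3 : (x₁ - x₂) * a = (x₁ - x₂) * 1 := by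
    rw [nf_sub_mul, mul_one]
    calc x₁ * a - x₂ * a = (x₁ * a + b) - (x₂ * a + b) := by
          rw [add_sub_add_right_eq_sub]
      _ = x₁ - x₂ := by rw [h1, h2]
  have ha1 : a = 1 := nf_mul_left_cancel (sub_ne_zero.mpr hx) h3
  subst ha1
  have hb : b = 0 := by
    rw [mul_one] at h1
    exact left_eq_add.mp h1.symm
  subst hb
  ext x
  rw [hs, mul_one, add_zero, Equiv.Perm.one_apply]

end Cfsg.Agent.PermutationGroups.NearFieldBasic
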